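import Mathlib
import Cfsg.Agent.Lib.SLCases.Decomp

/-! The monomial subgroup of `SL₄(5)` normalises a group `4 ∘ 2^(1+4)`. -/

set_option autoImplicit false

namespace CfsgLib.SLCases

open Cfsg Cfsg.Geo Matrix CfsgLib.Asch CfsgLib.ClMax Module
open scoped MatrixGroups Kronecker

variable {ι : Type} [Fintype ι] [DecidableEq ι] {F : Type*} [Field F]
variable {κ : Type} [Fintype κ] [DecidableEq κ]

/-- a spanning group whose elements commute up to sign and square to minus a square -/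
structure Pauli (L : Subgroup (GL ι F)) : Prop where
  env_top : env L = ⊤
  sq : ∀ x ∈ L, ∃ s : F, s ≠ 0 ∧ (x : Matrix ι ι F) * x = (-(s * s)) • 1
  comm : ∀ x ∈ L, ∀ y ∈ L, (x : Matrix ι ι F) * y = y * x ∨ (x : Matrix ι ι F) * y = -(y * x)
  scal : scalars ι F ≤ L

theorem Pauli.extra [Fintype F] (h2 : 2 ≤ Fintype.card ι) (hF : (2 : F) ≠ 0)
    {L : Subgroup (GL ι F)} (h : Pauli L) :
    ∃ (R : Subgroup (GL ι F)) (m : ℕ), ExtraData (subgroupNormalizer L) 2 R m := by
  have hsm : ∀ x ∈ L, ∀ (c : F) (y : GL ι F), c ≠ 0 → (y : Matrix ι ι F) = c • (x : Matrix ι ι F) →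
      y ∈ L := by
    intro x hx c y hc hy
    have : y = sc ι (Units.mk0 c hc) * x := Units.ext (by simp [hy, coe_sc])
    exact this ▸ L.mul_mem (h.scal (sc_mem _)) hx
  obtain ⟨R, m, hR, -⟩ := exists_extraData h2 (H := subgroupNormalizer L) (L := L) Nat.prime_two
    (le_trans Subgroup.le_normalizer le_sup_left) (nrm_iff_le_normalizer.2 le_rfl) h.env_top
    (fun x hx => by
      obtain ⟨s, -, hs⟩ := h.sq x hx
      exact mem_scalars_of_eq_smul (by rw [pow_two, Units.val_mul, hs]))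
    (fun x hx y hy => by
      rcases h.comm x hx y hy with h1 | h1
      · refine mem_scalars_of_eq_smul (c := 1) ?_
        simp only [Units.val_mul, h1, Units.mul_inv_cancel_right, Units.mul_inv, one_smul]
      · refine mem_scalars_of_eq_smul (c := -1) ?_
        simp only [Units.val_mul, h1, neg_mul, Units.mul_inv_cancel_right, Units.mul_inv,
          neg_one_smul])
    (fun A hA hn hab y hy => by
      rw [sup_eq_left.2 h.scal] at hA
      refine mem_scalars_of_comm_env h.env_top fun x hx => ?_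
      rcases h.comm y (hA hy) x hx with h1 | h1
      · exact Units.ext h1
      exfalso
      obtain ⟨s, hs0, hs⟩ := h.sq x hx
      set x' : Matrix ι ι F := s⁻¹ • (x : Matrix ι ι F) with hx'
      have hx2 : x' * x' = -1 := by
        rw [hx', smul_mul_smul_comm, hs, smul_smul]
        have : s⁻¹ * s⁻¹ * -(s * s) = -1 := by field_simp
        rw [this, neg_one_smul]
      have e1 : (1 + x') * ((2 : F)⁻¹ • (1 - x')) = 1 := by
        rw [mul_smul_comm, add_mul, mul_sub, mul_sub, hx2, one_mul, one_mul, mul_one,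
          show (1 - x' + (x' - -1) : Matrix ι ι F) = (2 : F) • 1 by rw [two_smul]; abel, smul_smul,
          inv_mul_cancel₀ hF, one_smul]
      let g : GL ι F := ⟨1 + x', (2 : F)⁻¹ • (1 - x'), e1, mul_eq_one_comm.1 e1⟩
      have hg : ∀ z : GL ι F, (z : Matrix ι ι F) * x = -(x * z) →
          ((g * z * g⁻¹ : GL ι F) : Matrix ι ι F) = (-s⁻¹) • ((z * x : GL ι F) : Matrix ι ι F) := by
        intro z hz
        have h3 : x' * z = -(z * x') := by
          rw [hx', smul_mul_assoc, mul_smul_comm, hz, smul_neg, neg_neg]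
        rw [← cj_coe, cj_eq_iff]
        show (1 + x') * z = _ * (1 + x')
        rw [Units.val_mul, neg_smul, ← mul_smul_comm, ← hx', add_mul, one_mul, h3, neg_mul, mul_add,
          mul_one, mul_assoc, hx2]
        simp
      have hgL : g ∈ subgroupNormalizer L := by
        refine Subgroup.mem_normalizer_fintype fun z hz => ?_
        rcases h.comm z hz x hx with h3 | h3
        · have : g * z * g⁻¹ = z := by
            rw [mul_inv_eq_iff_eq_mul]
            apply Units.ext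
            show (1 + x') * z = z * (1 + x')
            rw [add_mul, mul_add, hx', smul_mul_assoc, mul_smul_comm, h3, one_mul, mul_one]
          rwa [this]
        · exact hsm _ (L.mul_mem hz hx) _ _ (neg_ne_zero.2 (inv_ne_zero hs0)) (hg z h3)
      have h4 := congrArg Units.val (hab _ (hn g hgL y hy) y hy)
      rw [Units.val_mul, Units.val_mul y, hg y h1, smul_mul_assoc, mul_smul_comm, Units.val_mul,
        mul_assoc] at h4
      have h5 := (Units.mul_right_inj y).1
        (smul_right_injective _ (neg_ne_zero.2 (inv_ne_zero hs0)) h4)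
      rw [h5, eq_neg_iff_add_eq_zero, ← two_smul F, smul_eq_zero] at h1
      have : Nonempty ι := Fintype.card_pos_iff.1 (by omega)
      exact (y * x).ne_zero (h1.resolve_left hF))
  exact ⟨R, m, hR⟩

theorem Pauli.map {L : Subgroup (GL κ F)} (h : Pauli L) (e : ι ≃ κ) (P : GL ι F) :
    Pauli (L.map (coordGL e P).toMonoidHom) := by
  refine ⟨?_, ?_, ?_, ?_⟩
  · refine eq_top_iff.2 fun a _ => ?_
    obtain ⟨a, rfl⟩ := (coord e P).surjective a
    have ha : a ∈ env L := h.env_top ▸ Algebra.mem_top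
    refine env_induction (p := fun a => coord e P a ∈ env (L.map (coordGL e P).toMonoidHom))
      (fun x hx => ?_) ?_ (fun a b ha hb => ?_) (fun c a ha => ?_) ha
    · rw [← coe_coordGL]; exact coe_mem_env ⟨x, hx, rfl⟩
    · rw [map_zero]; exact zero_mem _
    · rw [map_add]; exact add_mem ha hb
    · rw [map_smul]; exact Subalgebra.smul_mem _ ha c
  · rintro _ ⟨x, hx, rfl⟩
    obtain ⟨s, h0, hs⟩ := h.sq x hx
    exact ⟨s, h0, by simp only [MulEquiv.coe_toMonoidHom, coe_coordGL, ← map_mul, hs, map_smul,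
      map_one]⟩
  · rintro _ ⟨x, hx, rfl⟩ _ ⟨y, hy, rfl⟩
    refine (h.comm x hx y hy).imp (fun h => ?_) (fun h => ?_) <;>
      simp only [MulEquiv.coe_toMonoidHom, coe_coordGL, ← map_mul, h, map_neg]
  · intro g hg
    obtain ⟨c, rfl⟩ := mem_scalars_iff_sc.1 hg
    exact ⟨sc κ c, h.scal (sc_mem c), Units.ext (by
      simp only [MulEquiv.coe_toMonoidHom, coe_coordGL, coe_sc, map_smul, map_one])⟩

/-- monomial matrix -/
def mono (u : κ → F) (v : Equiv.Perm κ) : Matrix κ κ F := Matrix.of fun x y =>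
  if x = v y then u y else 0

theorem mono_mul (u u' : κ → F) (v v' : Equiv.Perm κ) :
    mono u v * mono u' v' = mono (fun y => u (v' y) * u' y) (v * v') := by
  ext x y
  simp [mono, mul_apply]
  rfl

omit [Fintype κ] in
theorem mono_const (c : F) : mono (fun _ : κ => c) 1 = c • (1 : Matrix κ κ F) := by
  ext x y
  simp [mono, one_apply]
  rfl

omit [Fintype κ] in
theorem mono_neg (u : κ → F) (v : Equiv.Perm κ) : mono (fun y => - u y) v = - mono u v := by
  ext x y
  by_cases h : x = v y <;> simp [mono, h]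

theorem isUnit_mono {u : κ → F} (hu : ∀ y, u y ≠ 0) (v : Equiv.Perm κ) : IsUnit (mono u v) := by
  refine IsUnit.of_mul_eq_one (mono (fun y => (u (v⁻¹ y))⁻¹) v⁻¹) ?_
  rw [mono_mul, mul_inv_cancel]
  simp only [mul_inv_cancel₀ (hu _)]
  rw [mono_const, one_smul]

/-- the Klein four group -/
def V4 (v : Equiv.Perm (Fin 4)) : Prop :=
  v = 1 ∨ v = Equiv.swap 0 1 * Equiv.swap 2 3 ∨ v = Equiv.swap 0 2 * Equiv.swap 1 3 ∨
    v = Equiv.swap 0 3 * Equiv.swap 1 2

instance : DecidablePred V4 := fun v => by unfold V4; infer_instance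

theorem V4.mul {v w : Equiv.Perm (Fin 4)} (hv : V4 v) (hw : V4 w) :
    V4 (v * w) ∧ v * w = w * v ∧ v * v = 1 := by
  rcases hv with rfl | rfl | rfl | rfl <;> rcases hw with rfl | rfl | rfl | rfl <;> decide

theorem V4.conj {v : Equiv.Perm (Fin 4)} (hv : V4 v) (σ : Equiv.Perm (Fin 4)) :
    V4 (σ * v * σ⁻¹) := by
  revert σ
  rcases hv with rfl | rfl | rfl | rfl <;> decide

theorem V4.trans (i : Fin 4) : ∃ v, V4 v ∧ v 0 = i := by
  revert i; decide

theorem V4.sign {v : Equiv.Perm (Fin 4)} (hv : V4 v) {u : Fin 4 → F}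
    (hu : ∀ i j, u i ^ 2 = u j ^ 2) (hp : ∏ i, u i = 1) (h4 : u 0 ^ 4 = 1) :
    ∃ β : F, (β = 1 ∨ β = -1) ∧ ∀ y, u (v y) = β * u y := by
  have h0 : u 0 ≠ 0 := by rintro h; simp [h] at h4
  refine ⟨u (v 0) / u 0, ?_, fun y => ?_⟩
  · rw [div_eq_iff h0, div_eq_iff h0, one_mul, neg_one_mul]
    exact sq_eq_sq_iff_eq_or_eq_neg.1 (hu _ _)
  · rw [div_mul_eq_mul_div, eq_div_iff h0]
    have h1 := hu 1 0
    have h2 := hu 2 0
    have h3 := hu 3 0
    rw [Fin.prod_univ_four] at hp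
    rcases hv with rfl | rfl | rfl | rfl <;> fin_cases y <;>
      simp [Equiv.swap_apply_def] <;> grind

/-- the group `4 ∘ 2^(1+4)` -/
def L64 (F : Type*) [Field F] [Finite F] : Subgroup (GL (Fin 4) F) :=
  let S : Submonoid (GL (Fin 4) F) :=
    { carrier := {g | ∃ v u, V4 v ∧ (∀ i j, u i ^ 2 = u j ^ 2) ∧ ∏ i, u i = 1 ∧
        (g : Matrix (Fin 4) (Fin 4) F) = mono u v}
      mul_mem' := by
        rintro g h ⟨v, u, h1, h2, h3, h4⟩ ⟨v', u', h1', h2', h3', h4'⟩
        refine ⟨v * v', fun y => u (v' y) * u' y, (h1.mul h1').1, fun i j => ?_, ?_, ?_⟩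
        · rw [mul_pow, mul_pow, h2 _ (v' j), h2' i j]
        · rw [Finset.prod_mul_distrib, Equiv.prod_comp v' u, h3, h3', one_mul]
        · rw [Units.val_mul, h4, h4', mono_mul]
      one_mem' := ⟨1, fun _ => 1, Or.inl rfl, fun _ _ => rfl, by simp, by
        rw [mono_const, one_smul, Units.val_one]⟩ }
  { S with
    inv_mem' := fun {g} hg => (Submonoid.powers_le.2 hg : Submonoid.powers g ≤ S)
      (mem_powers_iff_mem_zpowers.2 (inv_mem (Subgroup.mem_zpowers g))) }

theorem mem_L64 [Finite F] {g : GL (Fin 4) F} : g ∈ L64 F ↔ ∃ v u, V4 v ∧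
    (∀ i j, u i ^ 2 = u j ^ 2) ∧ ∏ i, u i = 1 ∧ (g : Matrix (Fin 4) (Fin 4) F) = mono u v :=
  Iff.rfl

theorem mono_mem_env [Finite F] {v : Equiv.Perm (Fin 4)} {u : Fin 4 → F} (hv : V4 v)
    (hu : ∀ i j, u i ^ 2 = u j ^ 2) (hp : ∏ i, u i = 1) : mono u v ∈ env (L64 F) := by
  obtain ⟨g, hg⟩ := isUnit_mono (fun y =>
    Finset.prod_ne_zero_iff.1 (hp ▸ one_ne_zero) y (Finset.mem_univ y)) v
  exact hg ▸ coe_mem_env (mem_L64.2 ⟨v, u, hv, hu, hp, hg⟩)

theorem pauli_L64 [Fintype F] (hq : Fintype.card F = 5) : Pauli (L64 F) := by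
  have h5 : (5 : F) = 0 := by simpa [hq] using FiniteField.cast_card_eq_zero F
  have h4 : ∀ c : F, c ≠ 0 → c ^ 4 = 1 := fun c hc => by
    simpa [hq] using FiniteField.pow_card_sub_one_eq_one c hc
  have hne : ∀ {u : Fin 4 → F}, ∏ i, u i = 1 → ∀ y, u y ≠ 0 := fun hp y =>
    Finset.prod_ne_zero_iff.1 (hp ▸ one_ne_zero) y (Finset.mem_univ y)
  refine ⟨?_, ?_, ?_, fun g hg => ?_⟩
  · have hd : ∀ a b c : F, a ^ 2 = 1 → b ^ 2 = 1 → c ^ 2 = 1 → a * b * c = 1 →
        mono ![1, a, b, c] 1 ∈ env (L64 F) := fun a b c ha hb hc h =>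
      mono_mem_env (Or.inl rfl) (fun i j => by
        fin_cases i <;> fin_cases j <;> simp [ha, hb, hc]) (by simp [Fin.prod_univ_four, h])
    have h0 : single 0 0 1 ∈ env (L64 F) := by
      have := neg_mem (add_mem (add_mem (add_mem (hd 1 1 1 (by simp) (by simp) (by simp) (by simp))
        (hd 1 (-1) (-1) (by simp) (by simp) (by simp) (by simp)))
        (hd (-1) 1 (-1) (by simp) (by simp) (by simp) (by simp)))
        (hd (-1) (-1) 1 (by simp) (by simp) (by simp) (by simp)))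
      convert this using 1
      ext i j
      fin_cases i <;> fin_cases j <;> simp [mono]
      linear_combination h5
    refine eq_top_iff.2 fun a _ => ?_
    rw [matrix_eq_sum_single a]
    refine Subalgebra.sum_mem _ fun i _ => Subalgebra.sum_mem _ fun j _ => ?_
    obtain ⟨v, hv, rfl⟩ := V4.trans i
    obtain ⟨w, hw, rfl⟩ := V4.trans j
    have := Subalgebra.smul_mem _ (mul_mem (mul_mem
      (mono_mem_env (u := fun _ => 1) hv (fun _ _ => rfl) (by simp)) h0)
      (mono_mem_env (u := fun _ => 1) hw (fun _ _ => rfl) (by simp))) (a (v 0) (w 0))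
    convert this using 1
    ext x y
    have hw' : (0 = w y) ↔ w 0 = y := by
      have h1 : ∀ z, w (w z) = z := fun z => by
        rw [← Equiv.Perm.mul_apply, (hw.mul hw).2.2]; rfl
      exact ⟨fun h => by rw [h, h1], fun h => by rw [← h, h1]⟩
    simp [mono, mul_apply, single_apply, ite_and, hw', eq_comm (a := x)]
    split_ifs <;> rfl
  · rintro x ⟨v, u, h1, h2, h3, h⟩
    obtain ⟨β, hβ, hβ'⟩ := h1.sign h2 h3 (h4 _ (hne h3 0))
    have h6 : (x : Matrix (Fin 4) (Fin 4) F) * x = (β * u 0 ^ 2) • 1 := by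
      rw [h, mono_mul, (h1.mul h1).2.2, ← mono_const]
      congr 1
      ext y
      rw [hβ', mul_assoc, ← sq, h2 y 0]
    have h7 : u 0 ^ 2 = 1 ∨ u 0 ^ 2 = -1 :=
      sq_eq_one_iff.1 (by rw [← pow_mul]; exact h4 _ (hne h3 0))
    have h8 : (2 : F) ≠ 0 := fun h => one_ne_zero (α := F) (by linear_combination h5 - 2 * h)
    rw [h6]
    rcases hβ with rfl | rfl <;> rcases h7 with h7 | h7 <;> rw [h7]
    · exact ⟨2, h8, by congr 1; linear_combination h5⟩
    · exact ⟨1, one_ne_zero, by simp⟩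
    · exact ⟨1, one_ne_zero, by simp⟩
    · exact ⟨2, h8, by congr 1; linear_combination h5⟩
  · rintro x ⟨v, u, h1, h2, h3, h⟩ y ⟨v', u', h1', h2', h3', h'⟩
    obtain ⟨β, hβ, hβ'⟩ := h1'.sign h2 h3 (h4 _ (hne h3 0))
    obtain ⟨γ, hγ, hγ'⟩ := h1.sign h2' h3' (h4 _ (hne h3' 0))
    rw [h, h', mono_mul, mono_mul, ← mono_neg, (h1.mul h1').2.1]
    simp only [hβ', hγ']
    rcases hβ with rfl | rfl <;> rcases hγ with rfl | rfl <;> simp [mul_comm]
  · obtain ⟨c, rfl⟩ := mem_scalars_iff_sc.1 hg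
    exact ⟨1, fun _ => c, Or.inl rfl, fun _ _ => rfl, by simp [h4], by rw [coe_sc, mono_const]⟩

theorem mono_normalizes [Fintype F] (hq : Fintype.card F = 5) {g : GL (Fin 4) F}
    (hg : g ∈ specialLinear (Fin 4) F) {σ : Equiv.Perm (Fin 4)}
    (h : ∀ x y, x ≠ σ y → (g : Matrix (Fin 4) (Fin 4) F) x y = 0) :
    g ∈ subgroupNormalizer (L64 F) := by
  have h4 : ∀ c : F, c ≠ 0 → c ^ 4 = 1 := fun c hc => by
    simpa [hq] using FiniteField.pow_card_sub_one_eq_one c hc
  have h0 := mono_ne_zero h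
  have hdet := mono_det h
  rw [mem_specialLinear.1 hg] at hdet
  set d : Fin 4 → F := fun y => (g : Matrix (Fin 4) (Fin 4) F) (σ y) y with hd
  have hgd : (g : Matrix (Fin 4) (Fin 4) F) = mono d σ := by
    ext x y
    by_cases hx : x = σ y
    · simp [mono, hx, hd]
    · simp [mono, hx, h x y hx]
  have h0 : ∀ y, d y ≠ 0 := h0
  refine Subgroup.mem_normalizer_fintype ?_
  rintro z ⟨v, u, h1, h2, h3, hz⟩
  obtain ⟨β, -, hβ⟩ := h1.sign (u := fun i => d i ^ 2)
    (fun i j => by rw [← pow_mul, ← pow_mul, h4 _ (h0 i), h4 _ (h0 j)])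
    (by
      rw [Finset.prod_pow]
      have := congrArg (· ^ 2) hdet
      simp only [one_pow, mul_pow] at this
      rw [this, ← Int.cast_pow, ← Units.val_pow_eq_pow_val, Int.units_sq]
      simp)
    (by rw [← pow_mul, mul_comm, pow_mul, h4 _ (h0 0), one_pow])
  refine ⟨σ * v * σ⁻¹, fun x => d (v (σ⁻¹ x)) * u (σ⁻¹ x) / d (σ⁻¹ x), h1.conj σ, fun i j => ?_,
    ?_, ?_⟩
  · simp only [div_pow, mul_pow, hβ, h2 (σ⁻¹ i) (σ⁻¹ j)]
    have := h0 (σ⁻¹ i)
    have := h0 (σ⁻¹ j)
    field_simp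
  · rw [Equiv.prod_comp σ⁻¹ (fun y => d (v y) * u y / d y), Finset.prod_div_distrib,
      Finset.prod_mul_distrib, Equiv.prod_comp v d, h3, mul_one,
      div_self (Finset.prod_ne_zero_iff.2 fun i _ => h0 i)]
  · rw [← cj_coe, cj_eq_iff, hz, hgd, mono_mul, mono_mul, inv_mul_cancel_right]
    congr 1
    ext y
    simp [h0]

theorem mono_five [Fintype F] (hq : Fintype.card F = 5) {D : Fin 4 → Submodule F (ι → F)}
    (hD : IsMDecomposition 1 D) : ∃ R : Subgroup (GL ι F), IsLinearSymplecticTypeData 2 R ∧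
      decompositionStabilizer D ⊓ specialLinear ι F ≤ subgroupNormalizer R := by
  obtain ⟨e, P, h⟩ := exists_adapted hD id card_fiber_id
  have hd := decomp_dim hD
  have : Fact (Nat.Prime 5) := ⟨by norm_num⟩
  have hc : CharP F 5 := charP_of_card_eq_prime hq
  obtain ⟨R, m, hR⟩ := ((pauli_L64 hq).map e P).extra (by omega)
    (odd_card_iff.1 (by rw [hq]; decide))
  have hz : Nat.card (Subgroup.center R) = 4 := by rw [hR.card_center, hq]; rfl
  refine ⟨R, ⟨hR.type, absIrred_of_env hR.env_top, 5, 1, by norm_num,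
    ⟨by norm_num, hc, by simpa using hq, by rw [hz]; norm_num, fun d h1 h2 => by omega⟩,
    Or.inr (Or.inl ⟨rfl, rfl, hz, by omega, m, by rw [hR.card, hz, pow_add]; rfl⟩)⟩,
    le_trans (fun g hg => ?_) hR.nrm.le_subgroupNormalizer⟩
  obtain ⟨σ, hσ⟩ := h.block hg.1
  have h1 := mono_normalizes hq ((coordGL_symm_mem_SL e P).2 hg.2) hσ
  exact Subgroup.le_normalizer_map (coordGL e P).toMonoidHom ⟨_, h1, by simp⟩

end CfsgLib.SLCases
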