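import Mathlib
import Cfsg.Agent.Lib.SLCases.Decomp

/-! The normaliser of a Singer cycle in `SL₃(4)` lies in a subfield group. -/

set_option autoImplicit false

namespace CfsgLib.SLCases

open Cfsg Cfsg.Geo Matrix CfsgLib.Asch CfsgLib.ClMax Module
open scoped MatrixGroups Kronecker

variable {F : Type*} [Field F]

theorem exists_basis64 [Fintype F] (hq : Fintype.card F = 4) (K : Type*) [Field K] [Algebra F K]
    (h3 : finrank F K = 3) (F₀ : Subfield F) :
    ∃ b : Basis (Fin 3) F K, (∀ j, b j ^ 7 = 1) ∧ (∀ k : K, k ^ 7 = 1 → ∀ i, b.repr k i ∈ F₀) ∧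
      ∀ a : K, Algebra.norm F a = 1 → ∃ (c : F) (k : K), c ≠ 0 ∧ k ^ 7 = 1 ∧ a = c • k := by
  have : FiniteDimensional F K := Module.finite_of_finrank_pos (by omega)
  have : Finite K := Module.finite_of_finite F
  have hF : Nat.card F = 4 := by rw [Nat.card_eq_fintype_card, hq]
  have hK : Nat.card K = 64 := by rw [Module.natCard_eq_pow_finrank (K := F), hF, h3]; rfl
  have := charP_two_of_card_four hq
  have h2 : (2 : K) = 0 := by
    have := congrArg (algebraMap F K) (CharTwo.two_eq_zero (R := F))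
    rwa [map_ofNat, map_zero] at this
  have : Fact (Nat.Prime 7) := ⟨by norm_num⟩
  have : Fact (Nat.Prime 3) := ⟨by norm_num⟩
  obtain ⟨θ, hθ⟩ := exists_prime_orderOf_dvd_card' (G := Kˣ) 7
    (by rw [Nat.card_units, hK]; norm_num)
  obtain ⟨ω, hω⟩ := exists_prime_orderOf_dvd_card' (G := Fˣ) 3 (by rw [Nat.card_units, hF])
  have hθ' : IsPrimitiveRoot (θ : K) 7 :=
    IsPrimitiveRoot.coe_units_iff.2 (hθ ▸ IsPrimitiveRoot.orderOf θ)
  have hω' : IsPrimitiveRoot (algebraMap F K ω) 3 :=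
    (IsPrimitiveRoot.coe_units_iff.2 (hω ▸ IsPrimitiveRoot.orderOf ω)).map_of_injective
      (algebraMap F K).injective
  generalize (θ : K) = t at hθ'
  have ht7 := hθ'.pow_eq_one
  have ht1 : t ≠ 1 := hθ'.ne_one (by norm_num)
  have hdeg : (minpoly F t).natDegree = 3 := by
    have h1 : (minpoly F t).natDegree ∣ 3 := h3 ▸ minpoly.degree_dvd (IsIntegral.of_finite F t)
    refine ((Nat.dvd_prime Nat.prime_three).1 h1).resolve_left fun h => ?_
    obtain ⟨c, rfl⟩ := minpoly.natDegree_eq_one_iff.1 h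
    have hc : c ≠ 0 := by rintro rfl; simp at ht7
    have h4 := FiniteField.pow_card_sub_one_eq_one c hc
    rw [hq] at h4
    have h5 : algebraMap F K c ^ 3 = 1 := by rw [← map_pow, h4, map_one]
    apply ht1
    calc algebraMap F K c = algebraMap F K c * (algebraMap F K c ^ 3) ^ 2 := by rw [h5]; ring
      _ = 1 := by rw [← ht7]; ring
  have hli : LinearIndependent F fun i : Fin 3 => t ^ (i : ℕ) := by
    have := linearIndependent_pow (K := F) t
    rwa [hdeg] at this
  let b := basisOfLinearIndependentOfCardEqFinrank hli (by simp [h3])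
  have hb : ∀ j, b j = t ^ (j : ℕ) := fun j => by simp [b]
  have hcub : t ^ 3 = t + 1 ∨ t ^ 3 = t ^ 2 + 1 := by
    have h1 : (t - 1) * ((t ^ 3 - (t + 1)) * (t ^ 3 - (t ^ 2 + 1))) = 0 := by
      linear_combination ht7 + (-t ^ 6 + t ^ 3) * h2
    rw [mul_eq_zero, mul_eq_zero, sub_eq_zero, sub_eq_zero, sub_eq_zero] at h1
    exact h1.resolve_left ht1
  have hrat : ∀ l : ℕ, ∀ i, b.repr (t ^ l) i ∈ F₀ := by
    intro l
    induction l using Nat.strong_induction_on with
    | _ l ih =>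
      by_cases hl : l < 3
      · intro i
        have := hb ⟨l, hl⟩
        rw [← this, b.repr_self, Finsupp.single_apply]
        split_ifs
        exacts [F₀.one_mem, F₀.zero_mem]
      · obtain ⟨l, rfl⟩ : ∃ l', l = l' + 3 := ⟨l - 3, by omega⟩
        intro i
        rcases hcub with h | h
        · rw [pow_add, h, mul_add, mul_one, ← pow_succ, map_add, Finsupp.add_apply]
          exact F₀.add_mem (ih _ (by omega) i) (ih _ (by omega) i)
        · rw [pow_add, h, mul_add, mul_one, ← pow_add, map_add, Finsupp.add_apply]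
          exact F₀.add_mem (ih _ (by omega) i) (ih _ (by omega) i)
  refine ⟨b, fun j => by rw [hb, ← pow_mul, mul_comm, pow_mul, ht7, one_pow], fun k hk => ?_,
    fun a ha => ?_⟩
  · obtain ⟨l, -, rfl⟩ := hθ'.eq_pow_of_pow_eq_one hk
    exact hrat l
  · have h1 := FiniteField.algebraMap_norm_eq_pow (K := F) (x := a)
    rw [ha, map_one, hK, hF] at h1
    norm_num at h1
    obtain ⟨i, -, hi⟩ := hω'.eq_pow_of_pow_eq_one (ξ := a ^ 7) (by rw [← pow_mul, ← h1])
    refine ⟨ω ^ i, a ^ 15, pow_ne_zero _ ω.ne_zero, ?_, ?_⟩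
    · rw [← pow_mul, show 15 * 7 = 21 * 5 from rfl, pow_mul, ← h1, one_pow]
    · rw [Algebra.smul_def, map_pow, hi, ← pow_add, show 7 + 15 = 21 + 1 from rfl, pow_succ, ← h1,
        one_mul]

theorem singer_le_subfield [Fintype F] (hq : Fintype.card F = 4)
    {K : Subalgebra F (Matrix (Fin 3) (Fin 3) F)} (hK : IsFieldSubalgebra 3 K) :
    ∃ (F₀ : Subfield F) (r : ℕ) (P : GL (Fin 3) F), r.Prime ∧ Fintype.card F = Nat.card F₀ ^ r ∧
      subalgebraNormalizer K ⊓ specialLinear (Fin 3) F ≤ subfieldSubgroup F₀ P := by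
  let _ : Field K := (isField_of_isFieldSubalgebra hK).toField
  have := charP_two_of_card_four hq
  have : ExpChar F 2 := ExpChar.prime Nat.prime_two
  obtain ⟨F₁, r, hle, hr, hc⟩ := exists_maximal_subfield
    (frobFixed_ne_top (F := F) (p := 2) (d := 1) (e := 2) one_lt_two hq one_pos one_lt_two)
  obtain ⟨b, hb1, hb2, hb3⟩ := exists_basis64 hq K hK.finrank_eq (frobFixed F 2 1)
  let v₀ : Fin 3 → F := Pi.single 0 1
  have hv₀ : v₀ ≠ 0 := fun h => one_ne_zero (α := F) (by simpa [v₀] using congrFun h 0)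
  let T₀ : K →ₗ[F] (Fin 3 → F) :=
    { toFun := fun k => (k : Matrix (Fin 3) (Fin 3) F) *ᵥ v₀
      map_add' := fun x y => add_mulVec _ _ _
      map_smul' := fun c x => smul_mulVec _ _ _ }
  have hT₀ : Function.Injective T₀ := by
    rw [injective_iff_map_eq_zero]
    intro k hk
    by_contra h0
    obtain ⟨y, -, hy⟩ := hK.inv k k.2 (fun h => h0 (Subtype.ext h))
    have h1 : y *ᵥ ((k : Matrix (Fin 3) (Fin 3) F) *ᵥ v₀) = y *ᵥ 0 := congrArg (y *ᵥ ·) hk
    rw [mulVec_mulVec, mul_eq_one_comm.1 hy, one_mulVec, mulVec_zero] at h1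
    exact hv₀ h1
  let T : K ≃ₗ[F] (Fin 3 → F) := T₀.linearEquivOfInjective hT₀ (by simp [hK.finrank_eq])
  have hT : ∀ k, T k = (k : Matrix (Fin 3) (Fin 3) F) *ᵥ v₀ := fun _ => rfl
  have hTm : ∀ k k' : K, (k : Matrix (Fin 3) (Fin 3) F) *ᵥ T k' = T (k * k') := fun k k' => by
    rw [hT, hT, mulVec_mulVec]; rfl
  let P : GL (Fin 3) F := toEquiv.symm (b.equivFun.symm.trans T)
  have hP : ∀ k, (P : Matrix (Fin 3) (Fin 3) F) *ᵥ b.equivFun k = T k := fun k => by
    simp only [P, toEquiv_symm_mulVec, LinearEquiv.trans_apply, LinearEquiv.symm_apply_apply]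
  have hrat : ∀ M : Matrix (Fin 3) (Fin 3) F, (∀ j, ∃ k : K, k ^ 7 = 1 ∧ M *ᵥ T (b j) = T k) →
      Rat (frobFixed F 2 1) (cj P⁻¹ M) := by
    intro M hM i j
    obtain ⟨k, hk, h⟩ := hM j
    have h1 := cj_mulVec P⁻¹ M (T (b j))
    rw [h, ← hP, ← hP, inv_mulVec_mulVec, inv_mulVec_mulVec] at h1
    have h2 : b.equivFun (b j) = Pi.single j 1 := by
      ext l; simp [Basis.equivFun_self, Pi.single_apply, eq_comm]
    rw [h2, mulVec_single_one] at h1
    have h3 := congrFun h1 i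
    rw [col_apply] at h3
    rw [h3]
    exact hb2 k hk i
  refine ⟨F₁, r, P, hr, hc, le_trans (fun g hg => ?_) (subfieldSubgroup_mono hle P)⟩
  have hst := stab_of_le_normalizer (le_refl (subalgebraNormalizer K)) g hg.1
  let τ : K → K := fun k => ⟨cj g k, hst k k.2⟩
  have hτ : ∀ k : K, k ^ 7 = 1 → τ k ^ 7 = 1 := fun k hk => Subtype.ext (by
    have := congrArg (fun x : K => cj g (x : Matrix (Fin 3) (Fin 3) F)) hk
    simpa using this)
  set a : K := T.symm ((g : Matrix (Fin 3) (Fin 3) F) *ᵥ v₀) with ha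
  have hg1 : ∀ k, (g : Matrix (Fin 3) (Fin 3) F) *ᵥ T k = T (τ k * a) := fun k => by
    rw [← hTm, ha, LinearEquiv.apply_symm_apply, hT, cj_mulVec]
  have ha0 : a ≠ 0 := by
    intro h
    have h1 := hg1 1
    rw [h, mul_zero, map_zero] at h1
    have h2 := inv_mulVec_mulVec g (T 1)
    rw [h1, mulVec_zero] at h2
    exact one_ne_zero (T.map_eq_zero_iff.1 h2.symm)
  have hdet : ∀ k : K, (k : Matrix (Fin 3) (Fin 3) F).det = Algebra.norm F k := fun k => by
    rw [Algebra.norm_apply, ← LinearMap.det_conj _ T, ← LinearMap.det_toLin']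
    congr 1
    refine LinearMap.ext fun v => ?_
    obtain ⟨x, rfl⟩ := T.surjective v
    simp [hTm]
  have h1 := hrat (((a⁻¹ : K) : Matrix (Fin 3) (Fin 3) F) * g) fun j => ⟨τ (b j), hτ _ (hb1 j), by
    rw [← mulVec_mulVec, hg1, hTm, mul_comm (τ _), inv_mul_cancel_left₀ ha0]⟩
  obtain ⟨a₀, ha₀⟩ := rat_iff_exists.1 h1
  have h2 : ((a₀.det : frobFixed F 2 1) : F) = Algebra.norm F (a⁻¹) := by
    have := (frobFixed F 2 1).subtype.map_det a₀
    rw [RingHom.mapMatrix_apply, ha₀, det_cj, det_mul, mem_specialLinear.1 hg.2, mul_one,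
      hdet] at this
    exact this
  have h3 : Algebra.norm F a = 1 := by
    have h4 := mem_frobFixed.1 a₀.det.2
    have h5 : Algebra.norm F a⁻¹ * Algebra.norm F a = 1 := by
      rw [← map_mul, inv_mul_cancel₀ ha0, map_one]
    rw [h2] at h4
    linear_combination (-Algebra.norm F a ^ 2) * h4 +
      (Algebra.norm F a⁻¹ * Algebra.norm F a + 1 - Algebra.norm F a) * h5
  obtain ⟨c, k, hc0, hk, hak⟩ := hb3 a h3
  refine mem_subfieldSubgroup.2 ⟨(Units.mk0 c hc0)⁻¹, ?_⟩
  rw [← map_smul]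
  refine hrat _ fun j => ⟨τ (b j) * k, by rw [mul_pow, hτ _ (hb1 j), hk, one_mul], ?_⟩
  rw [smul_mulVec, hg1, hak, mul_smul_comm, map_smul, smul_smul]
  simp [hc0]

end CfsgLib.SLCases
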