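import Mathlib
import Cfsg.Agent.Lib.SLCases.Decomp

/-! `GL₂(2) ⊗ GL_k(2)` normalises a field with four elements. -/

set_option autoImplicit false

namespace CfsgLib.SLCases

open Cfsg Cfsg.Geo Matrix CfsgLib.Asch CfsgLib.ClMax Module
open scoped MatrixGroups Kronecker

variable {ι : Type} [Fintype ι] [DecidableEq ι] {F : Type*} [Field F]
variable {κ : Type} [Fintype κ] [DecidableEq κ]

theorem isFieldSubalgebra_map {r : ℕ} {K : Subalgebra F (Matrix κ κ F)}
    (hK : IsFieldSubalgebra r K) (φ : Matrix κ κ F →ₐ[F] Matrix ι ι F)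
    (hφ : Function.Injective φ) : IsFieldSubalgebra r (K.map φ) := by
  refine ⟨?_, ?_, ?_⟩
  · rintro _ ⟨x, hx, rfl⟩ _ ⟨y, hy, rfl⟩
    simp only [RingHom.coe_coe, ← map_mul, hK.comm x hx y hy]
  · rintro _ ⟨x, hx, rfl⟩ h0
    obtain ⟨y, hy, h⟩ := hK.inv x hx (by rintro rfl; simp at h0)
    exact ⟨φ y, ⟨y, hy, rfl⟩, by simp only [RingHom.coe_coe, ← map_mul, h, map_one]⟩
  · rw [← hK.finrank_eq]
    exact (Subalgebra.equivMapOfInjective K φ hφ).toLinearEquiv.finrank_eq.symm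

theorem mem_normalizer_of_comm {K : Subalgebra F (Matrix ι ι F)} {g : GL ι F}
    (h : ∀ k ∈ K, (g : Matrix ι ι F) * k = k * g) : g ∈ subalgebraNormalizer K := by
  intro k
  rw [← cj_apply]
  refine ⟨fun hk => by rwa [cj_eq_iff.2 (h k hk)], fun hk => ?_⟩
  rwa [(cj g).injective (cj_eq_iff.2 (h _ hk))] at hk

/-- the algebra `F[ω]`, `ω² = ω + 1` -/
def K4 (F : Type*) [Field F] : Subalgebra F (Matrix (Fin 2) (Fin 2) F) where
  carrier := {a | a 1 0 = a 0 1 ∧ a 1 1 = a 0 0 + a 0 1}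
  mul_mem' := by
    rintro a b ⟨h1, h2⟩ ⟨h3, h4⟩
    simp only [Set.mem_ofPred_eq, mul_apply, Fin.sum_univ_two, h1, h2, h3, h4]
    constructor <;> ring
  add_mem' := by
    rintro a b ⟨h1, h2⟩ ⟨h3, h4⟩
    simp only [Set.mem_ofPred_eq, Matrix.add_apply, h1, h2, h3, h4]
    exact ⟨trivial, by ring⟩
  algebraMap_mem' c := by simp [algebraMap_matrix_apply]

theorem mem_K4 {a : Matrix (Fin 2) (Fin 2) F} :
    a ∈ K4 F ↔ a 1 0 = a 0 1 ∧ a 1 1 = a 0 0 + a 0 1 := Iff.rfl

theorem zero_or_one [Fintype F] (hq : Fintype.card F = 2) (c : F) : c = 0 ∨ c = 1 :=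
  or_iff_not_imp_left.2 (eq_one_of_card_two hq)

theorem K4_field [Fintype F] (hq : Fintype.card F = 2) : IsFieldSubalgebra 2 (K4 F) := by
  have h2 := two_eq_zero_of_card_two hq
  refine ⟨?_, ?_, ?_⟩
  · rintro a ⟨h1, h2⟩ b ⟨h3, h4⟩
    ext i j
    fin_cases i <;> fin_cases j <;> simp [mul_apply, Fin.sum_univ_two, h1, h2, h3, h4] <;> ring
  · rintro a ⟨h1, h3⟩ h0
    refine ⟨a * a, (K4 F).mul_mem ⟨h1, h3⟩ ⟨h1, h3⟩, ?_⟩
    have h4 : a 0 0 * a 0 0 + a 0 0 * a 0 1 + a 0 1 * a 0 1 = 1 := by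
      rcases zero_or_one hq (a 0 0) with h5 | h5 <;> rcases zero_or_one hq (a 0 1) with h6 | h6
      · refine absurd ?_ h0
        ext i j
        fin_cases i <;> fin_cases j <;> simp [h1, h3, h5, h6]
      · simp [h5, h6]
      · simp [h5, h6]
      · rw [h5, h6]; linear_combination h2
    have h5 : a 0 0 * a 0 0 = a 0 0 := by rcases zero_or_one hq (a 0 0) with h | h <;> simp [h]
    have h6 : a 0 1 * a 0 1 = a 0 1 := by rcases zero_or_one hq (a 0 1) with h | h <;> simp [h]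
    ext i j
    fin_cases i <;> fin_cases j <;> simp [mul_apply, Fin.sum_univ_two, h1, h3] <;> grind
  · let T : K4 F ≃ₗ[F] F × F :=
      { toFun := fun a => (a.1 0 0, a.1 0 1)
        invFun := fun x => ⟨!![x.1, x.2; x.2, x.1 + x.2], by simp [mem_K4]⟩
        map_add' := fun a b => rfl
        map_smul' := fun c a => rfl
        left_inv := fun a => Subtype.ext (by
          ext i j
          fin_cases i <;> fin_cases j <;> simp [a.2.1, a.2.2])
        right_inv := fun x => by simp }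
    simpa using T.finrank_eq

theorem cj_mem_K4 [Fintype F] (hq : Fintype.card F = 2) (g : GL (Fin 2) F)
    {a : Matrix (Fin 2) (Fin 2) F} (ha : a ∈ K4 F) : cj g a ∈ K4 F := by
  have h2 := two_eq_zero_of_card_two hq
  have h1 : cj g !![0, 1; 1, 1] ∈ K4 F := by
    have ht := trace_cj g !![0, 1; 1, 1]
    have hd := det_cj g !![0, 1; 1, 1]
    set b := cj g !![0, 1; 1, 1]
    simp only [trace_fin_two, det_fin_two] at ht hd
    simp at ht hd
    rw [mem_K4]
    rcases zero_or_one hq (b 0 0) with h3 | h3 <;> rcases zero_or_one hq (b 0 1) with h4 | h4 <;>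
      rcases zero_or_one hq (b 1 0) with h5 | h5 <;> grind
  have h3 : a = a 0 0 • (1 : Matrix (Fin 2) (Fin 2) F) + a 0 1 • !![0, 1; 1, 1] := by
    ext i j
    fin_cases i <;> fin_cases j <;> simp [ha.1, ha.2]
  rw [h3, map_add, map_smul, map_smul, map_one]
  exact (K4 F).add_mem ((K4 F).smul_mem (K4 F).one_mem _) ((K4 F).smul_mem h1 _)

theorem tensor_two [Fintype F] (hq : Fintype.card F = 2) {k : ℕ} (hk : 2 ≤ k)
    (e : ι ≃ Fin 2 × Fin k) (P : GL ι F) :
    ∃ K : Subalgebra F (Matrix ι ι F), IsFieldSubalgebra 2 K ∧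
      tensorProductSubgroup 2 k e P ≤ subalgebraNormalizer K ∧
      ∃ g ∈ subalgebraNormalizer K ⊓ specialLinear ι F, g ∉ tensorProductSubgroup 2 k e P := by
  set j : Fin k := ⟨0, by omega⟩
  set j' : Fin k := ⟨1, by omega⟩
  have hj : j ≠ j' := by simp [j, j', Fin.ext_iff]
  have : Nonempty (Fin k) := ⟨j⟩
  let φ : Matrix (Fin 2) (Fin 2) F →ₐ[F] Matrix ι ι F := (coord e P).toAlgHom.comp (kronL (Fin k))
  have hφ : ∀ a, φ a = coord e P (a ⊗ₖ 1) := fun _ => rfl
  refine ⟨(K4 F).map φ,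
    isFieldSubalgebra_map (K4_field hq) φ ((coord e P).injective.comp kronL_injective),
    Stab.le_normalizer ?_, ?_⟩
  · rintro g hg _ ⟨x, hx, rfl⟩
    obtain ⟨a, b, h⟩ := mem_tensorProductSubgroup'.1 hg
    refine ⟨cj a x, cj_mem_K4 hq a hx, (cj_eq_iff.2 ?_).symm⟩
    simp only [h, RingHom.coe_coe, hφ, ← map_mul,
      ← mul_kronecker_mul, cj_mul_coe, mul_one, one_mul]
  · set N : Matrix (Fin 2 × Fin k) (Fin 2 × Fin k) F := !![0, 1; 1, 1] ⊗ₖ single j j' 1 with hN
    have hN2 : N * N = 0 := by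
      rw [hN, ← mul_kronecker_mul, single_mul_single_of_ne _ _ _ _ hj.symm, kronecker_zero]
    let g : GL (Fin 2 × Fin k) F := ⟨1 + N, 1 - N, by
      rw [add_mul, mul_sub, mul_sub, hN2]; simp, by rw [sub_mul, mul_add, mul_add, hN2]; simp⟩
    refine ⟨coordGL e P g, ⟨?_, mem_specialLinear.2 (eq_one_of_card_two hq
      (Matrix.GeneralLinearGroup.det_ne_zero _))⟩, fun h => ?_⟩
    · refine mem_normalizer_of_comm ?_
      rintro _ ⟨x, hx, rfl⟩
      have h1 := (K4_field hq).comm x hx !![0, 1; 1, 1] (by simp [mem_K4])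
      simp only [coe_coordGL, RingHom.coe_coe, hφ, ← map_mul, g, hN, add_mul, mul_add,
        ← mul_kronecker_mul, mul_one, one_mul, h1]
    · rw [mem_tensorProductSubgroup, MulEquiv.symm_apply_apply] at h
      have h4 := kron_rel h (0, j) 0 1 j j'
      simp [g, hN, hj, one_apply] at h4

end CfsgLib.SLCases
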