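import Mathlib
import Cfsg.Agent.Lib.SLCases.Tensor2
import Cfsg.Agent.Lib.SLCases.Singer
import Cfsg.Agent.Lib.SLCases.Pauli

/-! The maximal subgroups of `SL_n(q)`, sorted into the geometric classes. -/

set_option autoImplicit false

namespace CfsgLib.SLCases

open Cfsg Cfsg.Geo Matrix CfsgLib.Asch CfsgLib.ClMax Module
open scoped MatrixGroups Kronecker

variable {F : Type*} [Field F] [Fintype F]

theorem card_ne_six : Fintype.card F ≠ 6 := by
  intro h
  have := FiniteField.isPrimePow_card F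
  rw [h] at this
  revert this
  decide +kernel

theorem sl_cases {n : ℕ} (hn : 3 ≤ n) {H : Subgroup (GL (Fin n) F)}
    (hH : IsMaximalIn (specialLinear (Fin n) F) H) :
    (∃ W : Submodule F (Fin n → F), W ≠ ⊥ ∧ W ≠ ⊤ ∧
      H = subspaceStabilizer W ⊓ specialLinear (Fin n) F) ∨
    (∃ (t m : ℕ) (D : Fin t → Submodule F (Fin n → F)), IsMDecomposition m D ∧ n = t * m ∧ 2 ≤ t ∧
      (m = 1 → 5 ≤ Fintype.card F) ∧ (m = 2 → 3 ≤ Fintype.card F) ∧
      (m = 1 → t = 4 → 7 ≤ Fintype.card F) ∧ (m = 2 → t = 2 → 4 ≤ Fintype.card F) ∧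
      H = decompositionStabilizer D ⊓ specialLinear (Fin n) F) ∨
    (∃ (r : ℕ) (K : Subalgebra F (Matrix (Fin n) (Fin n) F)), r.Prime ∧ r ∣ n ∧
      IsFieldSubalgebra r K ∧ (n = 3 → Fintype.card F ≠ 4) ∧
      H = subalgebraNormalizer K ⊓ specialLinear (Fin n) F) ∨
    (∃ (n₁ n₂ : ℕ) (e : Fin n ≃ Fin n₁ × Fin n₂) (P : GL (Fin n) F), 2 ≤ n₁ ∧ n₁ < n₂ ∧
      n = n₁ * n₂ ∧ (n₁ = 2 → 3 ≤ Fintype.card F) ∧
      H = tensorProductSubgroup n₁ n₂ e P ⊓ specialLinear (Fin n) F) ∨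
    (∃ (F₀ : Subfield F) (r : ℕ) (P : GL (Fin n) F), r.Prime ∧ Fintype.card F = Nat.card F₀ ^ r ∧
      H = subfieldSubgroup F₀ P ⊓ specialLinear (Fin n) F) ∨
    (∃ (r k : ℕ) (R : Subgroup (GL (Fin n) F)), IsLinearSymplecticTypeData r R ∧ r.Prime ∧
      n = r ^ k ∧ H = subgroupNormalizer R ⊓ specialLinear (Fin n) F) ∨
    (∃ (m t : ℕ) (e : Fin n ≃ (Fin t → Fin m)) (P : GL (Fin n) F), 3 ≤ m ∧ 2 ≤ t ∧ n = m ^ t ∧
      H = tensorWreathSubgroup m t e P ⊓ specialLinear (Fin n) F) ∨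
    (Even n ∧ ∃ f : (Fin n → F) → (Fin n → F) → F, IsSymplecticForm f ∧
      H = similarityGroup f ⊓ specialLinear (Fin n) F) ∨
    (∃ (σ : F ≃+* F) (f : (Fin n → F) → (Fin n → F) → F), IsUnitaryForm σ f ∧
      H = similarityGroup f ⊓ specialLinear (Fin n) F) ∨
    (Odd (Fintype.card F) ∧ ∃ Q : (Fin n → F) → F, IsNondegenerateQuadraticForm Q ∧
      H = quadSimilarityGroup Q ⊓ specialLinear (Fin n) F) ∨
    InLinearResidualClass H := by
  have h3 : 3 ≤ Fintype.card (Fin n) := by simpa using hn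
  have hne : Nonempty (Fin n) := ⟨⟨0, by omega⟩⟩
  have hq := Fintype.one_lt_card (α := F)
  have hle := hH.1.le
  have eq := fun {M} => IsMaximalIn.eq_inf (M := M) hH
  have stab : ∀ {W : Submodule F (Fin n → F)}, W ≠ ⊥ → W ≠ ⊤ → H ≤ subspaceStabilizer W →
      ∃ W : Submodule F (Fin n → F), W ≠ ⊥ ∧ W ≠ ⊤ ∧
        H = subspaceStabilizer W ⊓ specialLinear (Fin n) F :=
    fun h0 h1 h => ⟨_, h0, h1, eq h (not_le_stab h0 h1)⟩
  have symp : ∀ {f : (Fin n → F) → (Fin n → F) → F}, IsSymplecticForm f → H ≤ similarityGroup f →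
      Even n ∧ ∃ f : (Fin n → F) → (Fin n → F) → F, IsSymplecticForm f ∧
        H = similarityGroup f ⊓ specialLinear (Fin n) F :=
    fun hf h => ⟨by simpa using even_card_of_symplectic hf, _, hf, eq h (not_le_symp h3 hf)⟩
  have extra : ∀ {r : ℕ} {R : Subgroup (GL (Fin n) F)}, IsLinearSymplecticTypeData r R →
      H ≤ subgroupNormalizer R → ∃ (r k : ℕ) (R : Subgroup (GL (Fin n) F)),
        IsLinearSymplecticTypeData r R ∧ r.Prime ∧ n = r ^ k ∧
        H = subgroupNormalizer R ⊓ specialLinear (Fin n) F := fun hR h => by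
    obtain ⟨k, hk⟩ := extra_dim h3 hR
    exact ⟨_, k, _, hR, hR.symplecticType.prime, by simpa using hk, eq h (not_le_extra h3 hR)⟩
  rcases linear_aschbacher hn H with ⟨M, hM, h⟩ | h
  swap
  · iterate 10 right
    exact h
  rcases hM with ⟨W, h0, h1, rfl⟩ | ⟨W, U, h0, h1, -, rfl⟩ | ⟨W, U, h0, -, -, h1, rfl⟩ |
    ⟨t, m, D, hD, rfl⟩ | ⟨r, K, hr, hK, rfl⟩ | ⟨n₁, n₂, e, P, h1, h2, rfl⟩ |
    ⟨F₀, r, P, hr, hc, rfl⟩ | ⟨r, R, hR, rfl⟩ | ⟨m, t, e, P, hm, ht, rfl⟩ | ⟨f, hf, -, -, rfl⟩ |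
    ⟨σ, f, hf, -, rfl⟩ | ⟨Q, hQ, ho, -, rfl⟩
  · exact Or.inl (stab h0 h1 h)
  · exact Or.inl (stab h0 h1.ne_top (h.trans inf_le_left))
  · refine Or.inl (stab h0 ?_ (h.trans inf_le_left))
    rintro rfl
    exact absurd h1 (not_lt.2 (Submodule.finrank_mono le_top))
  · by_cases c1 : m = 1 ∧ Fintype.card F ≤ 4
    · obtain ⟨rfl, c1⟩ := c1
      have h2 : Fintype.card F = 2 ∨ Fintype.card F = 3 ∨ Fintype.card F = 4 := by omega
      rcases h2 with h2 | h2 | h2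
      · obtain ⟨W, a, b, c, -⟩ := mono_two h2 hD
        exact Or.inl (stab a b (h.trans c))
      · obtain ⟨Q, a, c, -⟩ := mono_three h2 hD
        iterate 9 right
        exact Or.inl ⟨by rw [h2]; decide, Q, a, eq (h.trans c) (not_le_quad h3 a)⟩
      · obtain ⟨σ, f, a, c, -⟩ := mono_four h2 hD
        iterate 8 right
        exact Or.inl ⟨σ, f, a, eq (h.trans c) (not_le_unitary h3 a)⟩
    by_cases c2 : m = 2 ∧ (Fintype.card F = 2 ∨ Fintype.card F = 3 ∧ t = 2)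
    · obtain ⟨rfl, c2⟩ := c2
      obtain ⟨f, a, c, -⟩ := plane_symp hD c2
      iterate 7 right
      exact Or.inl (symp a ((le_inf h hle).trans c))
    by_cases c3 : m = 1 ∧ t = 4 ∧ Fintype.card F = 5
    · obtain ⟨rfl, rfl, c3⟩ := c3
      obtain ⟨R, a, c⟩ := mono_five c3 hD
      iterate 5 right
      exact Or.inl (extra a ((le_inf h hle).trans c))
    have := card_ne_six (F := F)
    exact Or.inr (Or.inl ⟨t, m, D, hD, by simpa using decomp_dim hD, hD.two_le, by omega, by omega,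
      by omega, by omega, eq h (not_le_decomp hD)⟩)
  · have hd : r ∣ n := by simpa using field_dim hK
    by_cases c : n = 3 ∧ Fintype.card F = 4
    · obtain ⟨rfl, c⟩ := c
      obtain rfl := (Nat.prime_dvd_prime_iff_eq hr Nat.prime_three).1 hd
      obtain ⟨F₀, r, P, a, b, c⟩ := singer_le_subfield c hK
      iterate 4 right
      exact Or.inl ⟨F₀, r, P, a, b, eq ((le_inf h hle).trans c) (not_le_subfield (by omega) a b P)⟩
    · iterate 2 right
      exact Or.inl ⟨r, K, hr, hd, hK, by tauto, eq h (not_le_field h3 hr.two_le hK)⟩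
  · have hd : n = n₁ * n₂ := by simpa using Fintype.card_congr e
    by_cases c : n₁ = 2 ∧ Fintype.card F = 2
    · obtain ⟨rfl, c⟩ := c
      obtain ⟨K, a, b, -⟩ := tensor_two c (by omega) e P
      iterate 2 right
      exact Or.inl ⟨2, K, Nat.prime_two, ⟨_, hd⟩, a, by omega,
        eq (h.trans b) (not_le_field h3 le_rfl a)⟩
    · iterate 3 right
      exact Or.inl ⟨n₁, n₂, e, P, h1, h2, hd, by omega, eq h (not_le_tensor h1 (by omega) e P)⟩
  · iterate 4 right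
    exact Or.inl ⟨F₀, r, P, hr, hc, eq h (not_le_subfield (by omega) hr hc P)⟩
  · iterate 5 right
    exact Or.inl (extra hR h)
  · iterate 6 right
    exact Or.inl ⟨m, t, e, P, hm, ht, by simpa using Fintype.card_congr e,
      eq h (not_le_wreath (by omega) ht e P)⟩
  · iterate 7 right
    exact Or.inl (symp hf h)
  · iterate 8 right
    exact Or.inl ⟨σ, f, hf, eq h (not_le_unitary h3 hf)⟩
  · iterate 9 right
    exact Or.inl ⟨ho, Q, hQ, eq h (not_le_quad h3 hQ)⟩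

theorem extra_two {ι : Type} [Fintype ι] [DecidableEq ι] (h3 : 3 ≤ Fintype.card ι)
    {R : Subgroup (GL ι F)} (hR : IsLinearSymplecticTypeData 2 R) :
    ∃ p : ℕ, p.Prime ∧ Fintype.card F = p ∧ p % 4 = 1 := by
  obtain ⟨p, e, -, ⟨hp, -, h1, h2, -⟩, ⟨h, -⟩ | ⟨-, rfl, h, -⟩ | ⟨-, -, h, -⟩⟩ := hR.field
  · exact absurd h (by decide)
  · rw [h, pow_one] at h2
    have := hp.two_le
    exact ⟨p, hp, by simpa using h1, by omega⟩
  · omega

/-- for odd `r` the exponent `e` is the order of `p` modulo `r` -/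
theorem extra_odd {ι : Type} [Fintype ι] [DecidableEq ι] {r : ℕ} (h2 : r ≠ 2)
    {R : Subgroup (GL ι F)} (hR : IsLinearSymplecticTypeData r R) :
    ∃ p e : ℕ, p.Prime ∧ CharP F p ∧ Fintype.card F = p ^ e ∧ Odd e ∧ e ∣ r - 1 ∧
      (p % r) ^ e % r = 1 ∧ (1 < e → p % r ≠ 1) := by
  have hr := hR.symplecticType.prime
  obtain ⟨p, e, hrp, ⟨hp, hc, h1, h3, h4⟩, ⟨-, ho, h, -⟩ | ⟨h, -⟩ | ⟨h, -⟩⟩ := hR.field
  · rw [h] at h3 h4
    have : Fact r.Prime := ⟨hr⟩
    have key : ∀ d, r ∣ p ^ d - 1 ↔ (p : ZMod r) ^ d = 1 := fun d => by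
      rw [← ZMod.natCast_eq_zero_iff, Nat.cast_sub (Nat.one_le_pow _ _ hp.pos), sub_eq_zero]
      simp
    have hp0 : (p : ZMod r) ≠ 0 := by
      rw [Ne, ZMod.natCast_eq_zero_iff, Nat.prime_dvd_prime_iff_eq hr hp]; exact hrp
    have ho' : orderOf (p : ZMod r) = e :=
      (orderOf_eq_iff ho.pos).2 ⟨(key e).1 h3, fun d hd hd0 => by rw [Ne, ← key]; exact h4 d hd0 hd⟩
    refine ⟨p, e, hp, hc, h1, ho, ho' ▸ ZMod.orderOf_dvd_card_sub_one hp0, ?_, fun he h5 => ?_⟩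
    · rw [← Nat.pow_mod]
      have h5 := (Nat.modEq_iff_dvd' (Nat.one_le_pow _ _ hp.pos)).2 h3
      rw [← h5, Nat.mod_eq_of_lt hr.one_lt]
    · refine h4 1 one_pos he ?_
      rw [pow_one]
      exact (Nat.modEq_iff_dvd' hp.one_le).1 (by rw [Nat.ModEq, h5, Nat.mod_eq_of_lt hr.one_lt])
  · exact absurd h h2
  · exact absurd h h2

theorem extra_three {ι : Type} [Fintype ι] [DecidableEq ι]
    {R : Subgroup (GL ι F)} (hR : IsLinearSymplecticTypeData 3 R) :
    ∃ p : ℕ, p.Prime ∧ Fintype.card F = p ∧ p % 3 = 1 := by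
  obtain ⟨p, e, hp, -, h1, h2, h3, h4, -⟩ := extra_odd (by norm_num) hR
  have := Nat.le_of_dvd (by norm_num) h3
  interval_cases e <;> first | exact absurd h2 (by decide) | skip
  exact ⟨p, hp, by simpa using h1, by simpa using h4⟩

theorem extra_five {ι : Type} [Fintype ι] [DecidableEq ι]
    {R : Subgroup (GL ι F)} (hR : IsLinearSymplecticTypeData 5 R) :
    ∃ p : ℕ, p.Prime ∧ Fintype.card F = p ∧ p % 5 = 1 := by
  obtain ⟨p, e, hp, -, h1, h2, h3, h4, -⟩ := extra_odd (by norm_num) hR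
  have := Nat.le_of_dvd (by norm_num) h3
  interval_cases e <;> first | exact absurd h2 (by decide) | exact absurd h3 (by decide) | skip
  exact ⟨p, hp, by simpa using h1, by simpa using h4⟩

theorem extra_seven {ι : Type} [Fintype ι] [DecidableEq ι]
    {R : Subgroup (GL ι F)} (hR : IsLinearSymplecticTypeData 7 R) :
    ∃ p : ℕ, p.Prime ∧ CharP F p ∧ ((Fintype.card F = p ∧ p % 7 = 1) ∨
      (Fintype.card F = p ^ 3 ∧ (p % 7 = 2 ∨ p % 7 = 4))) := by
  obtain ⟨p, e, hp, hc, h1, h2, h3, h4, h5⟩ := extra_odd (by norm_num) hR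
  have := Nat.le_of_dvd (by norm_num) h3
  interval_cases e <;> first | exact absurd h2 (by decide) | exact absurd h3 (by decide) | skip
  · exact ⟨p, hp, hc, Or.inl ⟨by simpa using h1, by simpa using h4⟩⟩
  · refine ⟨p, hp, hc, Or.inr ⟨h1, ?_⟩⟩
    have h6 := h5 (by norm_num)
    have h7 := Nat.mod_lt p (show 0 < 7 by norm_num)
    generalize p % 7 = a at *
    interval_cases a <;> simp_all

theorem extra_eleven {ι : Type} [Fintype ι] [DecidableEq ι]
    {R : Subgroup (GL ι F)} (hR : IsLinearSymplecticTypeData 11 R) :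
    ∃ p : ℕ, p.Prime ∧ CharP F p ∧ ((Fintype.card F = p ∧ p % 11 = 1) ∨
      (Fintype.card F = p ^ 5 ∧ (p % 11 = 3 ∨ p % 11 = 4 ∨ p % 11 = 5 ∨ p % 11 = 9))) := by
  obtain ⟨p, e, hp, hc, h1, h2, h3, h4, h5⟩ := extra_odd (by norm_num) hR
  have := Nat.le_of_dvd (by norm_num) h3
  interval_cases e <;> first | exact absurd h2 (by decide) | exact absurd h3 (by decide) | skip
  · exact ⟨p, hp, hc, Or.inl ⟨by simpa using h1, by simpa using h4⟩⟩
  · refine ⟨p, hp, hc, Or.inr ⟨h1, ?_⟩⟩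
    have h6 := h5 (by norm_num)
    have h7 := Nat.mod_lt p (show 0 < 11 by norm_num)
    generalize p % 11 = a at *
    interval_cases a <;> simp_all

/-- a prime power `r ^ k` determines `r` through any prime factor -/
theorem eq_of_prime_dvd {n r k s : ℕ} (hr : r.Prime) (h : n = r ^ k) (hs : s.Prime) (hsn : s ∣ n) :
    r = s :=
  ((Nat.prime_dvd_prime_iff_eq hs hr).1 (hs.dvd_of_dvd_pow (h ▸ hsn))).symm

theorem pow_bound {n m t : ℕ} (hm : 3 ≤ m) (ht : 2 ≤ t) (h : n = m ^ t) (hn : n ≤ 12) :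
    n = 9 ∧ m = 3 ∧ t = 2 := by
  have h1 : t = 2 := by
    by_contra hne
    have : 3 ^ 3 ≤ m ^ t :=
      (Nat.pow_le_pow_left hm 3).trans (Nat.pow_le_pow_right (by omega) (by omega))
    omega
  subst h1
  have h2 : m = 3 := by
    by_contra hne
    have : 4 ^ 2 ≤ m ^ 2 := Nat.pow_le_pow_left (by omega) 2
    omega
  subst h2
  exact ⟨h, rfl, rfl⟩

end CfsgLib.SLCases
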